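import Cfsg.Prelude.Def_RootSubgroups
import Cfsg.Agent.Lib.Involutions.Basic
import Cfsg.Agent.Lib.InvChar.BaerSuzuki

/-!
Root involutions: basic facts, the forbidden configuration, triples `a, b, a b` of commuting root
involutions (Timmesfeld, III §1).
-/

set_option autoImplicit false
set_option linter.style.haveILetI false

namespace CfsgLib.RootInvol

open Cfsg
open Relation (ReflTransGen)

variable {G : Type*} [Group G] {D : Set G}

/-- `a b a b`, the commutator of two involutions. -/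
def br (a b : G) : G := a * b * a * b

theorem br_eq_sq (a b : G) : br a b = (a * b) ^ 2 := by simp [br, pow_two, mul_assoc]

section

variable (hD : IsRootInvolutionSet D)
include hD

theorem sq_eq {d : G} (hd : d ∈ D) : d * d = 1 :=
  CfsgLib.Involutions.mul_self_eq_one (hD.orderOf_eq d hd)

theorem inv_eq {d : G} (hd : d ∈ D) : d⁻¹ = d :=
  CfsgLib.Involutions.inv_eq_self (hD.orderOf_eq d hd)

theorem ne_one {d : G} (hd : d ∈ D) : d ≠ 1 :=
  CfsgLib.Involutions.ne_one (hD.orderOf_eq d hd)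

theorem mul_cancel {d : G} (hd : d ∈ D) (x : G) : d * (d * x) = x := by
  rw [← mul_assoc, sq_eq hD hd, one_mul]

theorem mem_conj {a d : G} (ha : a ∈ D) (hd : d ∈ D) : d * a * d ∈ D := by
  simpa [inv_eq hD hd] using hD.conj_mem a ha d

theorem orderOf_swap {a b : G} (ha : a ∈ D) (hb : b ∈ D) : orderOf (b * a) = orderOf (a * b) := by
  rw [← orderOf_inv (a * b), mul_inv_rev, inv_eq hD ha, inv_eq hD hb]

theorem ne_of_commute_mul_mem {a b : G} (ha : a ∈ D) (hab : a * b ∈ D) : a ≠ b := by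
  rintro rfl
  exact ne_one hD hab (sq_eq hD ha)

theorem orderOf_le_two {a b : G} (ha : a ∈ D) (hb : b ∈ D) (hc : Commute a b) :
    (a * b) ^ 2 = 1 := by
  rw [hc.mul_pow, pow_two, pow_two, sq_eq hD ha, sq_eq hD hb, one_mul]

theorem oddAdj_symm {a b : G} (h : OddAdj D a b) : OddAdj D b a :=
  ⟨h.2.1, h.1, h.2.2.1.symm, by rw [orderOf_swap hD h.1 h.2.1]; exact h.2.2.2⟩

theorem mul_ne_one_of_ne {a b : G} (hb : b ∈ D) (hne : a ≠ b) : a * b ≠ 1 := fun e =>
  hne ((mul_eq_one_iff_eq_inv.1 e).trans (inv_eq hD hb))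

theorem not_commute_of_odd {a b : G} (h : OddAdj D a b) : ¬ Commute a b := fun hc => by
  rcases (Nat.dvd_prime Nat.prime_two).1
    (orderOf_dvd_of_pow_eq_one (orderOf_le_two hD h.1 h.2.1 hc)) with e | e
  · exact mul_ne_one_of_ne hD h.2.1 h.2.2.1 (orderOf_eq_one_iff.1 e)
  · have := h.2.2.2
    rw [e] at this
    exact absurd this (by decide)

omit hD in
theorem not_four_of_odd {a b : G} (h : OddAdj D a b) : orderOf (a * b) ≠ 4 := fun e => by
  have := h.2.2.2
  rw [e] at this
  exact absurd this (by decide)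

theorem not_commute_of_four {a b : G} (ha : a ∈ D) (hb : b ∈ D) (h : orderOf (a * b) = 4) :
    ¬ Commute a b := fun hc => by
  have := orderOf_dvd_of_pow_eq_one (orderOf_le_two hD ha hb hc)
  rw [h] at this
  exact absurd this (by decide)

theorem trichotomy {a b : G} (ha : a ∈ D) (hb : b ∈ D) :
    Commute a b ∨ OddAdj D a b ∨ orderOf (a * b) = 4 := by
  rcases eq_or_ne a b with rfl | hne
  · exact Or.inl (Commute.refl a)
  rcases hD.pair a ha b hb with h | h | h
  · exact Or.inl h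
  · exact Or.inr (Or.inl ⟨ha, hb, hne, h⟩)
  · exact Or.inr (Or.inr h.1)

/-! ### Pairs with product of order four -/

theorem aba_eq {a b : G} (hb : b ∈ D) : a * b * a = br a b * b := by
  rw [br, mul_assoc _ b b, sq_eq hD hb, mul_one]

theorem four_swap {a b : G} (ha : a ∈ D) (hb : b ∈ D) (h : orderOf (a * b) = 4) :
    orderOf (b * a) = 4 := (orderOf_swap hD ha hb).trans h

theorem br_comm {a b : G} (ha : a ∈ D) (hb : b ∈ D) (h : orderOf (a * b) = 4) :
    br b a = br a b := by
  have h1 : (a * b) ^ 4 = 1 := h ▸ pow_orderOf_eq_one _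
  have h2 : br a b * br a b = 1 := by rw [br_eq_sq, ← pow_add]; exact h1
  have h3 : br b a = (br a b)⁻¹ := by
    simp only [br, mul_inv_rev, inv_eq hD ha, inv_eq hD hb, mul_assoc]
  rw [h3, inv_eq_of_mul_eq_one_right h2]

theorem br_mem {a b : G} (ha : a ∈ D) (hb : b ∈ D) (h : orderOf (a * b) = 4) : br a b ∈ D := by
  rcases hD.pair a ha b hb with hc | ho | hf
  · exact absurd hc (not_commute_of_four hD ha hb h)
  · rw [h] at ho; exact absurd ho (by decide)
  · rw [br_eq_sq]; exact hf.2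

theorem commute_br_left {a b : G} (ha : a ∈ D) (hb : b ∈ D) (h : orderOf (a * b) = 4) :
    Commute a (br a b) := by
  show a * br a b = br a b * a
  rw [show br a b * a = a * br b a by simp only [br, mul_assoc], br_comm hD ha hb h]

theorem commute_br_right {a b : G} (ha : a ∈ D) (hb : b ∈ D) (h : orderOf (a * b) = 4) :
    Commute b (br a b) := by
  show b * br a b = br a b * b
  rw [show b * br a b = br b a * b by simp only [br, mul_assoc], br_comm hD ha hb h]

theorem bab_eq {a b : G} (ha : a ∈ D) (_hb : b ∈ D) (_h : orderOf (a * b) = 4) :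
    b * a * b = a * br a b := by
  simp only [br, mul_assoc, mul_cancel hD ha]

theorem aba_eq' {a b : G} (ha : a ∈ D) (hb : b ∈ D) (h : orderOf (a * b) = 4) :
    a * b * a = b * br a b := by
  rw [aba_eq hD hb, (commute_br_right hD ha hb h).eq]

theorem left_mul_br_mem {a b : G} (ha : a ∈ D) (hb : b ∈ D) (h : orderOf (a * b) = 4) :
    a * br a b ∈ D := bab_eq hD ha hb h ▸ mem_conj hD ha hb

theorem right_mul_br_mem {a b : G} (ha : a ∈ D) (hb : b ∈ D) (h : orderOf (a * b) = 4) :
    b * br a b ∈ D := aba_eq' hD ha hb h ▸ mem_conj hD hb ha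

/-! ### The forbidden configuration -/

/-- An involution `u` cannot commute with `v` and `w` if `v u ∈ D` and `v w` has odd order. -/
theorem no_odd {u v w : G} (hu : u * u = 1) (hu1 : u ≠ 1) (huv : Commute u v) (huw : Commute u w)
    (hvu : v * u ∈ D) (hvw : OddAdj D v w) : False := by
  have hr : Commute u (v * w) := huv.mul_right huw
  have hnev : v * w ≠ 1 := mul_ne_one_of_ne hD hvw.2.1 hvw.2.2.1
  have ho : orderOf (v * u * w) = 2 * orderOf (v * w) := by
    have hou : orderOf u = 2 := CfsgLib.Involutions.orderOf_eq_two_iff.2 ⟨hu, hu1⟩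
    rw [show v * u * w = u * (v * w) by rw [← huv.eq]; group,
      hr.orderOf_mul_eq_mul_orderOf_of_coprime (by rw [hou]; exact Nat.coprime_two_left.2 hvw.2.2.2),
      hou]
  rcases trichotomy hD hvu hvw.2.1 with hc | h | h
  · have h2 := orderOf_dvd_of_pow_eq_one (orderOf_le_two hD hvu hvw.2.1 hc)
    rw [ho] at h2
    exact hnev (orderOf_eq_one_iff.1 (Nat.dvd_one.1
      (Nat.dvd_of_mul_dvd_mul_left two_pos (by simpa using h2))))
  · have h2 := h.2.2.2
    rw [ho] at h2
    exact absurd (Nat.Odd.of_mul_left h2) (by decide)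
  · rw [ho] at h
    obtain ⟨m, hm⟩ := hvw.2.2.2
    omega

/-- Two members commuting with `x` whose difference centralizes `a` are equal. -/
theorem cancel {x a c c' : G} (hx : x ∈ D) (hc : c ∈ D) (hc' : c' ∈ D) (hxc : Commute x c)
    (hxc' : Commute x c') (hm : x * c ∈ D) (hodd : OddAdj D (x * c) a)
    (hca : Commute (c * c') a) (hm' : x * c' ∈ D) : c = c' := by
  rcases trichotomy hD hc hc' with h | h | h
  · by_contra hne
    refine no_odd hD (u := c * c') (v := x * c) (w := a) ?_ (mul_ne_one_of_ne hD hc' hne) ?_ hca ?_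
      hodd
    · rw [← pow_two]; exact orderOf_le_two hD hc hc' h
    · exact ((hxc.mul_right hxc').symm).mul_right ((Commute.refl c).mul_left h.symm)
    · rwa [mul_assoc, mul_cancel hD hc]
  · exact (no_odd hD (sq_eq hD hx) (ne_one hD hx) hxc hxc' (by rwa [hxc.eq] at hm) h).elim
  · exfalso
    have hbr := br_mem hD hc hc' h
    refine no_odd hD (u := br c c') (v := x * c) (w := a) (sq_eq hD hbr) (ne_one hD hbr) ?_ ?_ ?_
      hodd
    · refine (Commute.symm ?_).mul_right (commute_br_left hD hc hc' h).symm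
      exact ((hxc.mul_right hxc').mul_right hxc).mul_right hxc'
    · rw [br_eq_sq]; exact hca.pow_left 2
    · have := mem_conj hD hm hc'
      rwa [← mul_assoc, ← hxc'.eq, mul_assoc x c', mul_assoc, bab_eq hD hc hc' h, ← mul_assoc] at this

/-! ### Conjugation -/

theorem oddAdj_conj {a b : G} (h : OddAdj D a b) (g : G) :
    OddAdj D (g * a * g⁻¹) (g * b * g⁻¹) := by
  refine ⟨hD.conj_mem a h.1 g, hD.conj_mem b h.2.1 g,
    fun e => h.2.2.1 (mul_left_cancel (mul_right_cancel e)), ?_⟩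
  rw [show g * a * g⁻¹ * (g * b * g⁻¹) = g * (a * b) * g⁻¹ by group,
    CfsgLib.Involutions.orderOf_conj]
  exact h.2.2.2

theorem oddAdj_conj_of_commute {a b d : G} (h : OddAdj D a b) (hd : d ∈ D) (hc : Commute d a) :
    OddAdj D a (d * b * d) := by
  have := oddAdj_conj hD h d
  rwa [inv_eq hD hd, hc.eq, mul_assoc a d d, sq_eq hD hd, mul_one] at this

omit hD in
theorem mem_oddPartners {d e : G} (hd : d ∈ D) : e ∈ oddPartners D d ↔ OddAdj D d e :=
  ⟨fun h => ⟨hd, h.1, h.2.1.symm, h.2.2⟩, fun h => ⟨h.2.1, h.2.2.1.symm, h.2.2.2⟩⟩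

theorem oddPartners_conj {d : G} (hd : d ∈ D) (g : G) :
    oddPartners D (g * d * g⁻¹) = (fun e => g * e * g⁻¹) '' oddPartners D d := by
  ext e
  rw [mem_oddPartners (hD.conj_mem d hd g)]
  constructor
  · intro h
    refine ⟨g⁻¹ * e * g, ?_, by group⟩
    rw [mem_oddPartners hd]
    have h2 := oddAdj_conj hD h g⁻¹
    rw [show g⁻¹ * (g * d * g⁻¹) * g⁻¹⁻¹ = d by group,
      show g⁻¹ * e * g⁻¹⁻¹ = g⁻¹ * e * g by group] at h2
    exact h2
  · rintro ⟨x, hx, rfl⟩
    exact oddAdj_conj hD ((mem_oddPartners hd).1 hx) g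

theorem exists_conj_of_oddAdj {a b : G} (h : OddAdj D a b) : ∃ g : G, b = g * a * g⁻¹ := by
  obtain ⟨g, -, hg⟩ := CfsgLib.Involutions.exists_conj_eq_of_odd (hD.orderOf_eq a h.1)
    (hD.orderOf_eq b h.2.1) h.2.2.2
  exact ⟨g, hg.symm⟩

theorem exists_conj_of_reach {a b : G} (h : ReflTransGen (OddAdj D) a b) :
    ∃ g : G, b = g * a * g⁻¹ := by
  induction h with
  | refl => exact ⟨1, by group⟩
  | tail _ hadj ih =>
    obtain ⟨g, rfl⟩ := ih
    obtain ⟨g', hg'⟩ := exists_conj_of_oddAdj hD hadj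
    exact ⟨g' * g, by rw [hg']; group⟩

theorem reach_symm {a b : G} (h : ReflTransGen (OddAdj D) a b) :
    ReflTransGen (OddAdj D) b a := by
  induction h with
  | refl => exact ReflTransGen.refl
  | tail _ hadj ih => exact ih.head (oddAdj_symm hD hadj)

theorem not_isolated_iff {a : G} (ha : a ∈ D) :
    ¬ IsIsolatedElem (OddAdj D) D a ↔ ∃ a', OddAdj D a a' := by
  constructor
  · intro h
    by_contra hno
    push Not at hno
    exact h ⟨ha, fun b => ⟨hno b, fun hh => hno b (oddAdj_symm hD hh)⟩⟩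
  · rintro ⟨a', h⟩ hiso
    exact (hiso.2 a').1 h

/-- If `x` commutes with `a` and `a x ∈ D`, then some partner of `a` is a partner of `x` or of
`a x`. -/
theorem exists_partner_of_line {a a' x : G} (ha' : OddAdj D a a') (hx : x ∈ D)
    (hax : Commute a x) (hm : a * x ∈ D) :
    ∃ s, (∃ i : ℤ, s = (a * a') ^ i * a) ∧ OddAdj D a s ∧
      (OddAdj D s x ∨ OddAdj D s (a * x)) := by
  have ha := ha'.1
  by_contra hcon
  push Not at hcon
  have hno : ∀ s, (∃ i : ℤ, s = (a * a') ^ i * a) → OddAdj D a s →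
      ¬ OddAdj D s x ∧ ¬ OddAdj D s (a * x) := hcon
  set r := a * a' with hr
  have hoa := hD.orderOf_eq a ha
  have hoa' := hD.orderOf_eq a' ha'.2.1
  -- `x` commutes with its conjugates under `r`
  have hconj : ∀ i : ℤ, Commute x (r ^ i * x * (r ^ i)⁻¹) := by
    intro i
    obtain ⟨m, hm'⟩ := ha'.2.2.2
    set s := r ^ i * a with hs
    have hsD : s ∈ D := by
      have e : s = r ^ (i * (m + 1)) * a * (r ^ (i * (m + 1)))⁻¹ := by
        rw [CfsgLib.Involutions.conj_left_by_zpow hoa hoa', hs]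
        congr 1
        rw [← orderOf_dvd_sub_iff_zpow_eq_zpow, hr, hm']
        exact ⟨-i, by push_cast; ring⟩
      rw [e]; exact hD.conj_mem a ha _
    have hxs : r ^ i * x * (r ^ i)⁻¹ = s * x * s := by
      rw [show s * x * s = r ^ i * (a * x * a) * (a * (r ^ i * a)) by
        rw [hs]; simp only [mul_assoc, mul_cancel hD ha]]
      rw [hax.eq, mul_assoc x a a, sq_eq hD ha, mul_one, hr, ← mul_assoc a ((a * a') ^ i),
        CfsgLib.Involutions.mul_zpow_eq hoa hoa', zpow_neg, mul_assoc ((a * a') ^ i)⁻¹,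
        sq_eq hD ha, mul_one]
    rw [hxs]
    rcases eq_or_ne s a with e | e
    · rw [e, hax.eq, mul_assoc x a a, sq_eq hD ha, mul_one]
    have hodd : OddAdj D a s := by
      refine ⟨ha, hsD, e.symm, ?_⟩
      have : orderOf (s * a) ∣ orderOf r := by
        rw [hs, mul_assoc, sq_eq hD ha, mul_one]
        exact orderOf_dvd_of_mem_zpowers ⟨i, rfl⟩
      rw [orderOf_swap hD hsD ha]
      exact ha'.2.2.2.of_dvd_nat this
    rcases trichotomy hD hsD hx with h | h | h
    · rw [h.eq, mul_assoc, sq_eq hD hsD, mul_one]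
    · exact absurd h (hno s ⟨i, rfl⟩ hodd).1
    · rw [bab_eq hD hx hsD (four_swap hD hsD hx h)]
      exact (Commute.refl x).mul_right (commute_br_left hD hx hsD (four_swap hD hsD hx h))
  -- `(r⁻¹ x) ^ 4 ∈ r⁻⁴ V` for the abelian group `V` of these conjugates
  have hy4 : (r⁻¹ * x) ^ 4 = 1 := by
    have e : r⁻¹ * x = a' * (a * x) := by
      rw [hr, mul_inv_rev, inv_eq hD ha, inv_eq hD ha'.2.1]; group
    rw [e]
    rcases trichotomy hD ha'.2.1 hm with h | h | h
    · rw [show 4 = 2 * 2 from rfl, pow_mul, orderOf_le_two hD ha'.2.1 hm h, one_pow]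
    · exact absurd h (hno a'
        ⟨-1, CfsgLib.Involutions.right_eq_zpow_mul (hD.orderOf_eq a ha) (hD.orderOf_eq a' ha'.2.1)⟩
        ha').2
    · rw [← h]; exact pow_orderOf_eq_one _
  set X : ℤ → G := fun i => r ^ i * x * (r ^ i)⁻¹ with hX
  have hXc : ∀ i j, Commute (X i) (X j) := by
    intro i j
    have h := (hconj (j - i)).map (MulAut.conj (r ^ i)).toMonoidHom
    simp only [MulEquiv.coe_toMonoidHom, MulAut.conj_apply] at h
    rw [show r ^ i * (r ^ (j - i) * x * (r ^ (j - i))⁻¹) * (r ^ i)⁻¹ = X j by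
      simp only [hX]; group] at h
    exact h
  have hXsq : ∀ i, X i * X i = 1 := fun i => sq_eq hD (hD.conj_mem x hx _)
  have hprod : (X (-1) * X (-2) * X (-3) * X (-4)) ^ 2 = 1 := by
    rw [(((hXc (-1) (-4)).mul_left (hXc (-2) (-4))).mul_left (hXc (-3) (-4))).mul_pow,
      ((hXc (-1) (-3)).mul_left (hXc (-2) (-3))).mul_pow, (hXc (-1) (-2)).mul_pow]
    simp only [pow_two, hXsq, mul_one]
  have e4 : (r⁻¹ * x) ^ 4 = X (-1) * X (-2) * X (-3) * X (-4) * (r ^ 4)⁻¹ := by
    simp only [hX, pow_succ, pow_zero, one_mul]; group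
  rw [e4, mul_inv_eq_one] at hy4
  rw [hy4, ← pow_mul] at hprod
  have h8 : orderOf r ∣ 2 ^ 3 := orderOf_dvd_of_pow_eq_one hprod
  exact mul_ne_one_of_ne hD ha'.2.1 ha'.2.2.1 (orderOf_eq_one_iff.1
    (Nat.Coprime.eq_one_of_dvd ((ha'.2.2.2.coprime_two_right).pow_right 3) h8))

end

end CfsgLib.RootInvol
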