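import Cfsg.Agent.Lib.RootInvolutions.Basic

/-!
Odd partners of the three members of a commuting line `a, b, a b` (Timmesfeld, III §1).
-/

set_option autoImplicit false
set_option linter.style.haveILetI false

namespace CfsgLib.RootInvol

open Cfsg
open scoped commutatorElement

variable {G : Type*} [Group G] {D : Set G}

/-- `a`, `b`, `a b` are commuting members of `D`. -/
def IsLine (D : Set G) (a b : G) : Prop := a ∈ D ∧ b ∈ D ∧ Commute a b ∧ a * b ∈ D

variable (hD : IsRootInvolutionSet D)

theorem IsLine.symm {a b : G} (h : IsLine D a b) : IsLine D b a :=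
  ⟨h.2.1, h.1, h.2.2.1.symm, h.2.2.1.eq ▸ h.2.2.2⟩

include hD

theorem isLine_br {a b : G} (ha : a ∈ D) (hb : b ∈ D) (h : orderOf (a * b) = 4) :
    IsLine D a (br a b) :=
  ⟨ha, br_mem hD ha hb h, commute_br_left hD ha hb h, left_mul_br_mem hD ha hb h⟩

theorem IsLine.mul_right {a b : G} (h : IsLine D a b) : IsLine D a (a * b) :=
  ⟨h.1, h.2.2.2, (Commute.refl a).mul_right h.2.2.1,
    by rw [mul_cancel hD h.1]; exact h.2.1⟩

/-- A partner of one member of a line is no commuting member of another one. -/
theorem not_commute_of_line {a b x : G} (h : IsLine D a b) (hx : OddAdj D a x) :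
    ¬ Commute b x := fun hc =>
  no_odd hD (sq_eq hD h.2.1) (ne_one hD h.2.1) h.2.2.1.symm hc h.2.2.2 hx

theorem four_of_line {a b x : G} (h : IsLine D a b) (hx : OddAdj D a x)
    (hno : ¬ OddAdj D b x) : orderOf (x * b) = 4 := by
  rcases trichotomy hD h.2.1 hx.2.1 with h1 | h1 | h1
  · exact absurd h1 (not_commute_of_line hD h hx)
  · exact absurd h1 hno
  · exact four_swap hD h.2.1 hx.2.1 h1

/-- The map `b ↦ ⁅a, ⁅x, b⁆⁆` on the line members. -/
theorem line_step {a x b : G} (hax : OddAdj D a x) (hb : IsLine D a b)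
    (hxb : orderOf (x * b) = 4) :
    orderOf (a * br x b) = 4 ∧ IsLine D a (br a (br x b)) ∧
      orderOf (x * br a (br x b)) = 4 ∧ OddAdj D (a * br a (br x b)) x := by
  have ha := hax.1
  have hx := hax.2.1
  have hc := br_mem hD hx hb.2.1 hxb
  have hcx := commute_br_left hD hx hb.2.1 hxb
  have hxc := left_mul_br_mem hD hx hb.2.1 hxb
  have h4 : orderOf (a * br x b) = 4 := by
    rcases trichotomy hD ha hc with h | h | h
    · exact (no_odd hD (sq_eq hD hc) (ne_one hD hc) hcx.symm h.symm hxc
        (oddAdj_symm hD hax)).elim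
    · refine (no_odd hD (sq_eq hD hb.2.1) (ne_one hD hb.2.1)
        (commute_br_right hD hx hb.2.1 hxb) hb.2.2.1.symm ?_ (oddAdj_symm hD h)).elim
      rw [← (commute_br_right hD hx hb.2.1 hxb).eq]
      exact right_mul_br_mem hD hx hb.2.1 hxb
    · exact h
  set c := br x b with hcdef
  have hd := br_mem hD ha hc h4
  have hodd : OddAdj D (a * br a c) x := by
    rw [← bab_eq hD ha hc h4]
    exact oddAdj_symm hD (oddAdj_conj_of_commute hD (oddAdj_symm hD hax) hc hcx.symm)
  refine ⟨h4, isLine_br hD ha hc h4, ?_, hodd⟩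
  rcases trichotomy hD hx hd with h | h | h
  · exact (no_odd hD (sq_eq hD hd) (ne_one hD hd) (commute_br_left hD ha hc h4).symm h.symm
      (left_mul_br_mem hD ha hc h4) hax).elim
  · exact (no_odd hD (sq_eq hD hc) (ne_one hD hc) hcx.symm (commute_br_right hD ha hc h4) hxc
      h).elim
  · exact h

/-- The step is injective on the members for which `a b` is a partner of `x`. -/
theorem line_step_inj {a x b b' : G} (hax : OddAdj D a x) (hb : IsLine D a b)
    (hxb : orderOf (x * b) = 4) (hb' : IsLine D a b') (hxb' : orderOf (x * b') = 4)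
    (hodd : OddAdj D (a * b') x) (he : br a (br x b) = br a (br x b')) : b = b' := by
  have ha := hax.1
  have hx := hax.2.1
  have hc := br_mem hD hx hb.2.1 hxb
  have hc' := br_mem hD hx hb'.2.1 hxb'
  have h1 : br x b = br x b' := by
    refine cancel hD (x := x) (a := a) hx hc hc' (commute_br_left hD hx hb.2.1 hxb)
      (commute_br_left hD hx hb'.2.1 hxb') (left_mul_br_mem hD hx hb.2.1 hxb) ?_ ?_
      (left_mul_br_mem hD hx hb'.2.1 hxb')
    · rw [← bab_eq hD hx hb.2.1 hxb]
      exact oddAdj_symm hD (oddAdj_conj_of_commute hD hax hb.2.1 hb.2.2.1.symm)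
    · have h2 : br x b * a * br x b = br x b' * a * br x b' := by
        simp only [br, mul_assoc] at he ⊢
        exact mul_left_cancel he
      show br x b * br x b' * a = a * (br x b * br x b')
      calc br x b * br x b' * a = br x b * (br x b' * a * br x b') * br x b' := by
            simp only [mul_assoc, sq_eq hD hc', mul_one]
        _ = br x b * (br x b * a * br x b) * br x b' := by rw [h2]
        _ = _ := by simp only [mul_assoc, mul_cancel hD hc]
  refine (cancel hD (x := a) (a := x) ha hb'.2.1 hb.2.1 hb'.2.2.1 hb.2.2.1 hb'.2.2.2 hodd ?_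
    hb.2.2.2).symm
  have h2 : b' * x * b' = b * x * b := by
    rw [bab_eq hD hx hb.2.1 hxb, bab_eq hD hx hb'.2.1 hxb', h1]
  show b' * b * x = x * (b' * b)
  calc b' * b * x = b' * (b * x * b) * b := by simp only [mul_assoc, sq_eq hD hb.2.1, mul_one]
    _ = b' * (b' * x * b') * b := by rw [h2]
    _ = _ := by simp only [mul_assoc, mul_cancel hD hb'.2.1]

variable [Finite G]

/-- The step is surjective, and every partner of `a` that is no partner of `b` is one of `a b`. -/
theorem line_periodic {a x b : G} (hax : OddAdj D a x) (hb : IsLine D a b)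
    (hxb : orderOf (x * b) = 4) :
    OddAdj D (a * b) x ∧
      ∃ b₀, IsLine D a b₀ ∧ orderOf (x * b₀) = 4 ∧ br a (br x b₀) = b := by
  let F : ℕ → G := fun n => (fun y => br a (br x y))^[n] b
  have hsucc : ∀ n, F (n + 1) = br a (br x (F n)) := fun n => Function.iterate_succ_apply' _ n b
  have hprop : ∀ n, IsLine D a (F n) ∧ orderOf (x * F n) = 4 := by
    intro n
    induction n with
    | zero => exact ⟨hb, hxb⟩
    | succ n ih =>
      rw [hsucc]
      exact ⟨(line_step hD hax ih.1 ih.2).2.1, (line_step hD hax ih.1 ih.2).2.2.1⟩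
  have hgood : ∀ n, OddAdj D (a * F (n + 1)) x := fun n => by
    rw [hsucc]; exact (line_step hD hax (hprop n).1 (hprop n).2).2.2.2
  have hback : ∀ i m, F i = F (i + (m + 1)) → F 0 = F (m + 1) := by
    intro i
    induction i with
    | zero => intro m h; rwa [zero_add] at h
    | succ i ih =>
      intro m h
      refine ih m ?_
      rw [hsucc, show i + 1 + (m + 1) = (i + (m + 1)) + 1 by omega, hsucc] at h
      exact line_step_inj hD hax (hprop i).1 (hprop i).2 (hprop _).1 (hprop _).2
        (hgood (i + m)) h
  obtain ⟨i, j, hne, he⟩ := Finite.exists_ne_map_eq_of_infinite F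
  obtain ⟨m, hm⟩ : ∃ m, F 0 = F (m + 1) := by
    rcases lt_or_gt_of_ne hne with h | h
    · exact ⟨_, hback i (j - i - 1) (by rw [he]; congr 1; omega)⟩
    · exact ⟨_, hback j (i - j - 1) (by rw [← he]; congr 1; omega)⟩
  change b = F (m + 1) at hm
  exact ⟨hm ▸ hgood m, F m, (hprop m).1, (hprop m).2, (hsucc m).symm.trans hm.symm⟩

theorem oddPartners_subset_union {a b : G} (h : IsLine D a b) :
    oddPartners D a ⊆ oddPartners D b ∪ oddPartners D (a * b) := by
  intro x hx
  rw [mem_oddPartners h.1] at hx
  by_cases hb : OddAdj D b x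
  · exact Or.inl ((mem_oddPartners h.2.1).2 hb)
  · exact Or.inr ((mem_oddPartners h.2.2.2).2
      (line_periodic hD hx h (four_of_line hD h hx hb)).1)

variable (hconj : ∀ a ∈ D, ∀ b ∈ D, ∃ g : G, b = g * a * g⁻¹)
include hconj

omit [Finite G] in
theorem ncard_oddPartners {a b : G} (ha : a ∈ D) (hb : b ∈ D) :
    (oddPartners D a).ncard = (oddPartners D b).ncard := by
  obtain ⟨g, rfl⟩ := hconj a ha b hb
  rw [oddPartners_conj hD ha g, Set.ncard_image_of_injective _
    fun x y e => mul_left_cancel (mul_right_cancel e)]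

theorem oddPartners_eq_of_subset {a b : G} (ha : a ∈ D) (hb : b ∈ D)
    (h : oddPartners D a ⊆ oddPartners D b) : oddPartners D a = oddPartners D b :=
  Set.eq_of_subset_of_ncard_le h (ncard_oddPartners hD hconj ha hb).ge

theorem exists_mem_diff {a b : G} (ha : a ∈ D) (hb : b ∈ D)
    (h : oddPartners D a ≠ oddPartners D b) : ∃ x, OddAdj D a x ∧ ¬ OddAdj D b x := by
  by_contra hno
  push Not at hno
  exact h (oddPartners_eq_of_subset hD hconj ha hb fun x hx =>
    (mem_oddPartners hb).2 (hno x ((mem_oddPartners ha).1 hx)))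

/-- If two members of a line have the same partners, so does the third. -/
theorem line_third {a b : G} (h : IsLine D a b)
    (he : oddPartners D b = oddPartners D (a * b)) : oddPartners D a = oddPartners D b := by
  refine oddPartners_eq_of_subset hD hconj h.1 h.2.1 fun x hx => ?_
  rcases oddPartners_subset_union hD h hx with h1 | h1
  · exact h1
  · exact he ▸ h1

/-- Members with the same partners commute. -/
theorem commute_of_same_partners {e f : G} (he : e ∈ D) (hf : f ∈ D)
    (hA : oddPartners D e = oddPartners D f) : Commute e f := by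
  have hnoadj : ∀ u ∈ D, ∀ v ∈ D, oddPartners D u = oddPartners D v → ¬ OddAdj D u v := by
    intro u hu v hv huv hodd
    have := (mem_oddPartners hu).2 hodd
    rw [huv] at this
    exact this.2.1 rfl
  rcases trichotomy hD he hf with h | h | h
  · exact h
  · exact absurd h (hnoadj e he f hf hA)
  exfalso
  set c := br e f with hcdef
  have hline : IsLine D e c := isLine_br hD he hf h
  have hAec : oddPartners D (e * c) = oddPartners D e := by
    conv_rhs => rw [hA]
    have h1 : oddPartners D (f * e * f⁻¹) = oddPartners D (f * f * f⁻¹) := by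
      rw [oddPartners_conj hD he, oddPartners_conj hD hf, hA]
    rw [mul_inv_cancel_right, inv_eq hD hf, bab_eq hD he hf h] at h1
    exact h1
  have hAc : oddPartners D c = oddPartners D e :=
    line_third hD hconj hline.symm (by rw [← hline.2.2.1.eq]; exact hAec.symm)
  set T := {t | t ∈ D ∧ oddPartners D t = oddPartners D e} with hT
  set P := Subgroup.closure T with hP
  have hρ : ∀ t ∈ T, ∃ ρ : G, ρ * c * ρ⁻¹ = t ∧ ∀ u ∈ T, ρ * u * ρ⁻¹ ∈ T := by
    intro t ht
    obtain ⟨ρ, hρ⟩ := hconj c hline.2.1 t ht.1
    refine ⟨ρ, hρ.symm, fun u hu => ⟨hD.conj_mem u hu.1 ρ, ?_⟩⟩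
    rw [oddPartners_conj hD hu.1, hu.2, ← hAc, ← oddPartners_conj hD hline.2.1, ← hρ, ht.2, hAc]
  have hcP : c ∈ ⁅P, P⁆ := by
    have e1 : c = ⁅e, f⁆ := by rw [commutatorElement_def, inv_eq hD he, inv_eq hD hf, hcdef, br]
    rw [e1]
    exact Subgroup.commutator_mem_commutator (Subgroup.subset_closure ⟨he, rfl⟩)
      (Subgroup.subset_closure ⟨hf, hA.symm⟩)
  have hperf : P ≤ ⁅P, P⁆ := by
    rw [hP, Subgroup.closure_le]
    intro t ht
    obtain ⟨ρ, hρt, hρT⟩ := hρ t ht
    have hle : P.map (MulAut.conj ρ).toMonoidHom ≤ P := by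
      rw [hP, MonoidHom.map_closure, Subgroup.closure_le]
      rintro _ ⟨u, hu, rfl⟩
      exact Subgroup.subset_closure (hρT u hu)
    have h2 := Subgroup.mem_map_of_mem (MulAut.conj ρ).toMonoidHom hcP
    rw [Subgroup.map_commutator] at h2
    have h3 := Subgroup.commutator_mono hle hle h2
    simpa [hρt] using h3
  haveI : Fact (Nat.Prime 2) := ⟨Nat.prime_two⟩
  have hP2 : IsPGroup 2 P := by
    have htop : Cfsg.pCore 2 P = ⊤ := by
      rw [eq_top_iff, ← Subgroup.closure_preimage_eq_top T, Subgroup.closure_le]
      rintro ⟨t, htP⟩ ht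
      simp only [Set.mem_preimage, Subgroup.coe_subtype] at ht
      show (⟨t, htP⟩ : P) ∈ Cfsg.pCore 2 P
      by_contra hn
      have ho : orderOf (⟨t, htP⟩ : P) = 2 := by
        rw [← Subgroup.orderOf_coe]; exact hD.orderOf_eq t ht.1
      obtain ⟨y, hy, hodd, hy1⟩ := CfsgLib.InvChar.exists_conj_odd_orderOf_mul _ ho hn
      obtain ⟨g, rfl⟩ := isConj_iff.1 hy
      have hyT : ((g * ⟨t, htP⟩ * g⁻¹ : P) : G) ∈ T := by
        have key : ∀ g ∈ P, ∀ u ∈ T, g * u * g⁻¹ ∈ T := by
          intro g hg
          induction hg using Subgroup.closure_induction'' with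
          | one => intro u hu; simpa using hu
          | mul x y _ _ hx hy =>
            intro u hu
            rw [show x * y * u * (x * y)⁻¹ = x * (y * u * y⁻¹) * x⁻¹ by group]
            exact hx _ (hy u hu)
          | mem x hx =>
            intro u hu
            refine ⟨hD.conj_mem u hu.1 x, ?_⟩
            rw [oddPartners_conj hD hu.1, hu.2, ← hx.2, ← oddPartners_conj hD hx.1,
              mul_inv_cancel_right]
          | inv_mem x hx =>
            intro u hu
            refine ⟨hD.conj_mem u hu.1 x⁻¹, ?_⟩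
            rw [oddPartners_conj hD hu.1, hu.2, ← hx.2, ← oddPartners_conj hD hx.1]
            group
        exact key g g.2 t ht
      refine hnoadj t ht.1 _ hyT.1 (ht.2.trans hyT.2.symm) ⟨ht.1, hyT.1, fun e => hy1 ?_, ?_⟩
      · apply Subtype.ext
        rw [Subgroup.coe_mul, Subgroup.coe_one, ← e]
        exact sq_eq hD ht.1
      · rw [← Subgroup.orderOf_coe] at hodd
        exact hodd
    exact CfsgLib.Cores.pCore_eq_top_iff.1 htop
  haveI : Group.IsNilpotent P := hP2.isNilpotent
  haveI : Nontrivial P := ⟨⟨⟨e, Subgroup.subset_closure ⟨he, rfl⟩⟩, 1,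
    fun h => ne_one hD he (congrArg Subtype.val h)⟩⟩
  refine (Group.IsSolvable.commutator_lt_top_of_nontrivial P).ne (top_le_iff.1 ?_)
  intro p _
  have h1 := hperf p.2
  rw [← Subgroup.map_subtype_commutator] at h1
  obtain ⟨q, hq, hqe⟩ := h1
  rwa [← Subtype.ext hqe]

/-- Conjugates under a pair with product of order four have different partners. -/
theorem oddPartners_four_ne {e f : G} (he : e ∈ D) (hf : f ∈ D) (h : orderOf (e * f) = 4) :
    oddPartners D e ≠ oddPartners D (f * e * f) := by
  intro hA
  set c := br e f with hcdef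
  have hline : IsLine D e c := isLine_br hD he hf h
  rw [bab_eq hD he hf h] at hA
  have hAc : oddPartners D c = oddPartners D e :=
    line_third hD hconj hline.symm (by rw [← hline.2.2.1.eq]; exact hA)
  have hfe := four_swap hD he hf h
  have hlinef : IsLine D f c := by
    have := isLine_br hD hf he hfe
    rwa [br_comm hD he hf h] at this
  have hne : oddPartners D c ≠ oddPartners D f := fun h' =>
    not_commute_of_four hD he hf h (commute_of_same_partners hD hconj he hf (hAc.symm.trans h'))
  obtain ⟨x, hxc, hxf⟩ := exists_mem_diff hD hconj hline.2.1 hf hne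
  obtain ⟨-, f₀, hf₀, hxf₀, hf₀e⟩ :=
    line_periodic hD hxc hlinef.symm (four_of_line hD hlinef.symm hxc hxf)
  set g := br x f₀ with hgdef
  have hcg : orderOf (c * g) = 4 := (line_step hD hxc hf₀ hxf₀).1
  have hg : g ∈ D := br_mem hD hxc.2.1 hf₀.2.1 hxf₀
  have hfg : Commute g f := hf₀e ▸ commute_br_right hD hline.2.1 hg hcg
  have hgcg : g * c * g = c * f := by rw [bab_eq hD hline.2.1 hg hcg, hf₀e]
  rcases trichotomy hD hg he with h1 | h1 | h1
  · refine not_commute_of_four hD hline.2.1 hg hcg (Commute.symm ?_)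
    rw [hcdef]
    exact ((h1.mul_right hfg).mul_right h1).mul_right hfg
  · have : g ∈ oddPartners D c := hAc ▸ (mem_oddPartners he).2 (oddAdj_symm hD h1)
    exact not_four_of_odd ((mem_oddPartners hline.2.1).1 this) hcg
  · set k := br g e with hkdef
    have hk : k ∈ D := br_mem hD hg he h1
    have hgeg : g * e * g = e * k := aba_eq' hD hg he h1
    have hfef : f * e * f = e * c := bab_eq hD he hf h
    have hefe : e * f * e = f * c := aba_eq' hD he hf h
    have hegE : e * g * e = g * k := bab_eq hD hg he h1
    have conjg : ∀ u v : G, g * (u * v) * g = (g * u * g) * (g * v * g) := fun u v => by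
      simp only [mul_assoc, mul_cancel hD hg]
    have hgfg : g * f * g = f := by rw [hfg.eq, mul_assoc, sq_eq hD hg, mul_one]
    -- relations for `k`
    have h2 : f * k * f = c * k * c * f := by
      have h3 : (g * f * g) * (g * e * g) * (g * f * g) = (g * e * g) * (g * c * g) := by
        rw [← conjg e c, ← hfef, conjg, conjg]
      rw [hgfg, hgeg, hgcg] at h3
      have h4 : f * (e * k) * f = (f * e * f) * (f * k * f) := by
        simp only [mul_assoc, mul_cancel hD hf]
      rw [h4, hfef] at h3
      calc f * k * f = c * (e * (e * c * (f * k * f))) := by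
            simp only [mul_assoc, mul_cancel hD he, mul_cancel hD hline.2.1]
        _ = c * (e * (e * k * (c * f))) := by rw [h3]
        _ = _ := by simp only [mul_assoc, mul_cancel hD he]
    have h3 : c * k * c = f * k := (mul_right_cancel h2).symm
    have h4 : k * f = f * k := by
      have hsq : (c * k * c) * (c * k * c) = 1 := by
        simp only [mul_assoc, mul_cancel hD hline.2.1, mul_cancel hD hk, sq_eq hD hline.2.1]
      rw [h3] at hsq
      have := eq_inv_of_mul_eq_one_left hsq
      rw [mul_inv_rev, inv_eq hD hk, inv_eq hD hf] at this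
      exact this.symm
    have h5 : k * c * k = c * f := by
      calc k * c * k = k * (c * k * c) * c := by
            simp only [mul_assoc, sq_eq hD hline.2.1, mul_one]
        _ = f * c := by rw [h3, ← mul_assoc, h4, mul_assoc f k k, sq_eq hD hk, mul_one]
        _ = c * f := hlinef.2.2.1.eq
    -- two values for `(e g e) c (e g e)`
    have v1 : e * g * e * c * (e * g * e) = f := by
      calc e * g * e * c * (e * g * e) = e * (g * (e * c * e) * g) * e := by group
        _ = e * (g * c * g) * e := by
            rw [show e * c * e = c by rw [hline.2.2.1.eq, mul_assoc, sq_eq hD he, mul_one]]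
        _ = e * c * (e * (e * f * e)) := by
            rw [hgcg]; simp only [mul_assoc, mul_cancel hD he]
        _ = e * c * (e * (f * c)) := by rw [hefe]
        _ = _ := by
            rw [hline.2.2.1.eq, mul_assoc c e, mul_cancel hD he, hlinef.2.2.1.eq,
              mul_cancel hD hline.2.1]
    have v2 : e * g * e * c * (e * g * e) = c := by
      have hkg : Commute g k := commute_br_left hD hg he h1
      have e0 : g * k * c * (g * k) = g * (k * c * k) * g := by
        conv_lhs => arg 2; rw [hkg.eq]
        simp only [mul_assoc]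
      rw [hegE, e0, h5, conjg, hgcg, hgfg, mul_assoc, sq_eq hD hf, mul_one]
    exact ne_of_commute_mul_mem hD hlinef.1 hlinef.2.2.2 (v1.symm.trans v2)

end CfsgLib.RootInvol
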