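import Cfsg.Agent.Lib.RootInvolutions.Blocks

/-!
Root involutions with connected odd-order graph: same commuting members, products of order three
(Timmesfeld, III §1, §2).
-/

set_option autoImplicit false
set_option linter.style.haveILetI false

namespace CfsgLib.RootInvol

open Cfsg
open Relation (ReflTransGen)

variable {G : Type*} [Group G] {D : Set G} (hD : IsRootInvolutionSet D)
include hD

theorem conj_of_connected (hc : IsConnectedSet (OddAdj D) D) :
    ∀ a ∈ D, ∀ b ∈ D, ∃ g : G, b = g * a * g⁻¹ :=
  fun a ha b hb => exists_conj_of_reach hD (hc a ha b hb)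

omit hD in
theorem exists_partner_of_connected (hc : IsConnectedSet (OddAdj D) D) {a b : G} (ha : a ∈ D)
    (hb : b ∈ D) (hne : a ≠ b) : ∃ a', OddAdj D a a' := by
  rcases ReflTransGen.cases_head (hc a ha b hb) with e | ⟨z, hz, -⟩
  · exact absurd e hne
  · exact ⟨z, hz⟩

theorem union_eq_iff {d e : G} (hd : d ∈ D) (he : e ∈ D) :
    commutingMembers D d ∪ fourPartners D d = commutingMembers D e ∪ fourPartners D e ↔
      oddPartners D d = oddPartners D e := by
  have key : ∀ u ∈ D, ∀ z, z ∈ commutingMembers D u ∪ fourPartners D u ↔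
      z ∈ D ∧ z ∉ oddPartners D u := by
    intro u hu z
    constructor
    · rintro (⟨hz, hc⟩ | ⟨hz, h4⟩) <;> refine ⟨hz, fun ho => ?_⟩ <;>
        rw [mem_oddPartners hu] at ho
      · exact not_commute_of_odd hD ho hc.symm
      · exact not_four_of_odd ho h4
    · rintro ⟨hz, hno⟩
      rcases trichotomy hD hu hz with h | h | h
      · exact Or.inl ⟨hz, h.symm⟩
      · exact absurd ((mem_oddPartners hu).2 h) hno
      · exact Or.inr ⟨hz, h⟩
  constructor
  · intro h
    ext z
    have := Set.ext_iff.1 h z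
    rw [key d hd, key e he] at this
    exact ⟨fun hz => by_contra fun hn => (this.2 ⟨hz.1, hn⟩).2 hz,
      fun hz => by_contra fun hn => (this.1 ⟨hz.1, hn⟩).2 hz⟩
  · intro h
    ext z
    rw [key d hd, key e he, h]

variable [Finite G] (hconj : ∀ a ∈ D, ∀ b ∈ D, ∃ g : G, b = g * a * g⁻¹)

omit [Finite G] in
theorem oddPartners_subset_of_commuting {d e : G} (hd : d ∈ D) (he : e ∈ D)
    (h : commutingMembers D d = commutingMembers D e) :
    oddPartners D d ⊆ oddPartners D e := by
  intro f hf
  rw [mem_oddPartners hd] at hf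
  have hde : Commute d e := ((Set.ext_iff.1 h d).1 ⟨hd, rfl⟩).2
  rcases trichotomy hD he hf.2.1 with h1 | h1 | h1
  · exact absurd ((Set.ext_iff.1 h f).2 ⟨hf.2.1, h1.symm.eq⟩).2
      (fun h2 => not_commute_of_odd hD (oddAdj_symm hD hf) h2)
  · exact (mem_oddPartners he).2 h1
  exfalso
  -- `c` centralizes `⟨d, f⟩`, and `d` commutes with `f d f`
  have hconjC : ∀ u v : G, u ∈ D → v ∈ D → Commute u (f * v * f) → Commute (f * u * f) v := by
    intro u v _ _ hc
    show f * u * f * v = v * (f * u * f)
    calc f * u * f * v = f * (u * (f * v * f)) * f := by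
          simp only [mul_assoc, sq_eq hD hf.2.1, mul_one]
      _ = f * (f * v * f * u) * f := by rw [hc.eq]
      _ = _ := by simp only [mul_assoc, mul_cancel hD hf.2.1]
  have hfef : f * e * f = e * br e f := bab_eq hD he hf.2.1 h1
  have hefe : Commute e (f * e * f) := hfef ▸ (Commute.refl e).mul_right
    (commute_br_left hD he hf.2.1 h1)
  have h2 : Commute d (f * e * f) :=
    (((Set.ext_iff.1 h (f * e * f)).2
      ⟨mem_conj hD he hf.2.1, hefe.symm.eq⟩).2 : Commute (f * e * f) d).symm
  have h3 : Commute (f * d * f) e := hconjC d e hd he h2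
  have h4 : Commute (f * d * f) d :=
    ((Set.ext_iff.1 h (f * d * f)).2 ⟨mem_conj hD hd hf.2.1, h3⟩).2
  have hsq : (d * f) ^ 4 = 1 := by
    have h5 := orderOf_le_two hD (mem_conj hD hd hf.2.1) hd h4
    have e4 : (d * f) ^ 4 = d * ((f * d * f) * d) ^ 2 * d * (d * f) ^ 0 := by
      simp only [pow_succ, pow_zero, one_mul, mul_one, mul_assoc, sq_eq hD hd]
    rw [e4, h5]
    simp [sq_eq hD hd]
  have := Nat.Coprime.eq_one_of_dvd ((hf.2.2.2.coprime_two_right).pow_right 2)
    (orderOf_dvd_of_pow_eq_one (by rw [show 2 ^ 2 = 4 from rfl]; exact hsq))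
  exact mul_ne_one_of_ne hD hf.2.1 hf.2.2.1 (orderOf_eq_one_iff.1 this)

include hconj

theorem commuting_subset_of_oddPartners {d e : G} (hd : d ∈ D) (he : e ∈ D)
    (h : oddPartners D d = oddPartners D e) :
    commutingMembers D d ⊆ commutingMembers D e := by
  rintro f ⟨hf, hfd⟩
  refine ⟨hf, ?_⟩
  rcases trichotomy hD hf he with h1 | h1 | h1
  · exact h1
  · have h2 := (mem_oddPartners he).2 (oddAdj_symm hD h1)
    rw [← h, mem_oddPartners hd] at h2
    exact absurd (Commute.symm hfd) (not_commute_of_odd hD h2)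
  · exfalso
    refine oddPartners_four_ne hD hconj he hf (four_swap hD hf he h1) ?_
    have h2 := oddPartners_conj hD hd f
    rw [inv_eq hD hf, hfd, mul_assoc, sq_eq hD hf, mul_one, h] at h2
    rw [h2]
    have h3 := (oddPartners_conj hD he f).symm
    rw [inv_eq hD hf] at h3
    exact h3

theorem commutingMembers_eq_iff {d e : G} (hd : d ∈ D) (he : e ∈ D) :
    commutingMembers D d = commutingMembers D e ↔ oddPartners D d = oddPartners D e :=
  ⟨fun h => (oddPartners_subset_of_commuting hD hd he h).antisymm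
      (oddPartners_subset_of_commuting hD he hd h.symm),
    fun h => (commuting_subset_of_oddPartners hD hconj hd he h).antisymm
      (commuting_subset_of_oddPartners hD hconj he hd h.symm)⟩

omit [Finite G] hconj in
theorem odd_of_config {a b e c : G} (hab : IsLine D a b) (he : e ∈ D) (hc : c ∈ D)
    (hbe : orderOf (b * e) = 4) (hbe' : br b e = a) (hac : orderOf (a * c) = 4)
    (hac' : br a c = b) : OddAdj D c e := by
  have hae : Commute e a := hbe' ▸ commute_br_right hD hab.2.1 he hbe
  have hcb : Commute c b := hac' ▸ commute_br_right hD hab.1 hc hac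
  have hebe : e * b * e = b * a := by rw [bab_eq hD hab.2.1 he hbe, hbe']
  have hcac : c * a * c = a * b := by rw [bab_eq hD hab.1 hc hac, hac']
  have heae : e * a * e = a := by rw [hae.eq, mul_assoc, sq_eq hD he, mul_one]
  have hcbc : c * b * c = b := by rw [hcb.eq, mul_assoc, sq_eq hD hc, mul_one]
  rcases trichotomy hD hc he with h | h | h
  · exfalso
    apply ne_one hD hab.1
    have h2 : e * b * e = b := by
      rw [← hac']
      simp only [br]
      calc e * (a * c * a * c) * e = (e * a * e) * c * (e * a * e) * c := by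
            have h' : ∀ x, c * (e * x) = e * (c * x) := fun x => by
              rw [← mul_assoc, h.eq, mul_assoc]
            simp only [mul_assoc, h', mul_cancel hD he, h.eq]
        _ = _ := by rw [heae]
    rw [hebe] at h2
    exact mul_eq_left.1 h2
  · exact h
  · exfalso
    set k := br c e with hk
    have hkD : k ∈ D := br_mem hD hc he h
    have hece : e * c * e = c * k := bab_eq hD hc he h
    have heke : e * k * e = k := by
      rw [show e * k = k * e from (commute_br_right hD hc he h).eq, mul_assoc, sq_eq hD he, mul_one]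
    have h2 : (c * k) * a * (c * k) = b := by
      rw [← hece]
      calc e * c * e * a * (e * c * e) = e * (c * (e * a * e) * c) * e := by group
        _ = e * (a * b) * e := by rw [heae, hcac]
        _ = (e * a * e) * (e * b * e) := by simp only [mul_assoc, mul_cancel hD he]
        _ = a * (b * a) := by rw [heae, hebe]
        _ = b := by rw [← hab.2.2.1.eq, mul_cancel hD hab.1]
    have h3 : k * a * k = b := by
      have hkc : c * k = k * c := (commute_br_left hD hc he h).eq
      calc k * a * k = c * ((c * k) * a * (k * c)) * c := by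
            simp only [mul_assoc, mul_cancel hD hc, sq_eq hD hc, mul_one]
        _ = c * b * c := by rw [← hkc, h2]
        _ = b := hcbc
    have h4 : k * a * k = b * a := by
      calc k * a * k = (e * k * e) * (e * a * e) * (e * k * e) := by rw [heke, heae]
        _ = e * (k * a * k) * e := by simp only [mul_assoc, mul_cancel hD he]
        _ = b * a := by rw [h3, hebe]
    exact ne_one hD hab.1 (mul_eq_left.1 (h3.symm.trans h4).symm)

omit [Finite G] hconj in
/-- The criterion for a product of order three. -/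
theorem orderOf_eq_three {a b f : G} (hab : IsLine D a b) (hfb : OddAdj D f b)
    (hfa : orderOf (f * a) = 4) (hbe : orderOf (b * br f a) = 4) (he : br b (br f a) = a) :
    orderOf (b * f) = 3 := by
  have hf := hfb.1
  set e := br f a with hedef
  have heD : e ∈ D := br_mem hD hf hab.1 hfa
  have hea : Commute e a := (commute_br_right hD hf hab.1 hfa).symm
  have hef : Commute e f := (commute_br_left hD hf hab.1 hfa).symm
  have hfaf : f * a * f = a * e := aba_eq' hD hf hab.1 hfa
  have hbeb : b * e * b = e * a := by rw [aba_eq' hD hab.2.1 heD hbe, he]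
  have hbab : b * a * b = a := by rw [← hab.2.2.1.eq, mul_assoc, sq_eq hD hab.2.1, mul_one]
  have hfef : f * e * f = e := by rw [← hef.eq, mul_assoc, sq_eq hD hf, mul_one]
  set r := b * f with hr
  have hcr : ∀ x : G, r * x * r⁻¹ = b * (f * x * f) * b := fun x => by
    rw [hr, mul_inv_rev, inv_eq hD hf, inv_eq hD hab.2.1]; group
  have h1 : r * a * r⁻¹ = e := by
    rw [hcr, hfaf]
    calc b * (a * e) * b = (b * a * b) * (b * e * b) := by
          simp only [mul_assoc, mul_cancel hD hab.2.1]
      _ = e := by rw [hbab, hbeb, hea.eq, mul_cancel hD hab.1]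
  have h2 : r * e * r⁻¹ = e * a := by rw [hcr, hfef, hbeb]
  have h3 : r * (e * a) * r⁻¹ = a := by
    rw [show r * (e * a) * r⁻¹ = (r * e * r⁻¹) * (r * a * r⁻¹) by group, h1, h2, hea.eq,
      mul_assoc, sq_eq hD heD, mul_one]
  have hcom : Commute a (r ^ 3) := by
    refine Commute.symm (mul_inv_eq_iff_eq_mul.1 ?_)
    calc r ^ 3 * a * (r ^ 3)⁻¹ = r * (r * (r * a * r⁻¹) * r⁻¹) * r⁻¹ := by
          simp only [pow_succ, pow_zero, one_mul]; group
      _ = a := by rw [h1, h2, h3]
  have hodd : Odd (orderOf r) := (oddAdj_symm hD hfb).2.2.2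
  by_contra hne
  have hr3 : r ^ 3 ≠ 1 := fun e3 => hne (orderOf_eq_prime e3
    (mul_ne_one_of_ne hD hf hfb.2.2.1.symm))
  obtain ⟨m, hm⟩ := hodd
  have hob := hD.orderOf_eq b hab.2.1
  have hof := hD.orderOf_eq f hf
  have hw : b * r ^ 3 ∈ D := by
    have e3 : b * r ^ 3 = r ^ (-(3 * (m + 1)) : ℤ) * b * (r ^ (-(3 * (m + 1)) : ℤ))⁻¹ := by
      rw [CfsgLib.Involutions.conj_left_by_zpow hob hof, ← zpow_natCast,
        CfsgLib.Involutions.mul_zpow_eq hob hof]
      congr 1
      rw [← orderOf_dvd_sub_iff_zpow_eq_zpow, hm]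
      exact ⟨3, by push_cast; ring⟩
    rw [e3]; exact hD.conj_mem b hab.2.1 _
  refine no_odd hD (u := a) (v := b) (w := b * r ^ 3) (sq_eq hD hab.1) (ne_one hD hab.1)
    hab.2.2.1 (hab.2.2.1.mul_right hcom) hab.symm.2.2.2 ⟨hab.2.1, hw, ?_, ?_⟩
  · exact fun e3 => hr3 (mul_eq_left.1 e3.symm)
  · rw [mul_cancel hD hab.2.1]
    exact (Odd.of_dvd_nat ⟨m, hm⟩ (orderOf_pow_dvd 3))

/-- Timmesfeld, III (2.?): a line through members with different partners gives order three. -/
theorem exists_orderOf_three {a b : G} (hab : IsLine D a b)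
    (hne : oddPartners D a ≠ oddPartners D b) :
    ∃ x ∈ fourPartners D a, orderOf (b * x) = 3 := by
  obtain ⟨f, hfb, hfa⟩ := exists_mem_diff hD hconj hab.2.1 hab.1 hne.symm
  have hfa4 := four_of_line hD hab.symm hfb hfa
  obtain ⟨-, a₀, ha₀, hfa₀, ha₀e⟩ := line_periodic hD hfb hab.symm hfa4
  set e := br f a₀ with hedef
  have hbe : orderOf (b * e) = 4 := (line_step hD hfb ha₀ hfa₀).1
  have he : e ∈ D := br_mem hD hfb.2.1 ha₀.2.1 hfa₀
  have hline : IsLine D a e := by
    have := isLine_br hD he hab.2.1 (four_swap hD hab.2.1 he hbe)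
    rw [br_comm hD hab.2.1 he hbe, ha₀e] at this
    exact this.symm
  have hne' : oddPartners D a ≠ oddPartners D e := by
    intro h
    have h1 := line_third hD hconj (a := a * e) (b := a) ?_ ?_
    · refine oddPartners_four_ne hD hconj he hab.2.1 (four_swap hD hab.2.1 he hbe) ?_
      rw [aba_eq' hD hab.2.1 he hbe, ha₀e, ← hline.2.2.1.eq, ← h, h1]
    · exact (hline.mul_right hD).symm
    · rw [show a * e * a = e by rw [hline.2.2.1.eq, mul_assoc, sq_eq hD hab.1, mul_one], h]
  obtain ⟨x, hax, hex⟩ := exists_mem_diff hD hconj hab.1 he hne'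
  have hxe := four_of_line hD hline hax hex
  obtain ⟨-, e₀, he₀, hxe₀, he₀e⟩ := line_periodic hD hax hline hxe
  set c := br x e₀ with hcdef
  have hac : orderOf (a * c) = 4 := (line_step hD hax he₀ hxe₀).1
  have hc : c ∈ D := br_mem hD hax.2.1 he₀.2.1 hxe₀
  have hcb : OddAdj D c b :=
    odd_of_config hD hline hab.2.1 hc (four_swap hD hab.2.1 he hbe)
      ((br_comm hD hab.2.1 he hbe).trans ha₀e) hac he₀e
  have hca : br c a = e := (br_comm hD hab.1 hc hac).trans he₀e
  exact ⟨c, ⟨hc, hac⟩, orderOf_eq_three hD hab hcb (four_swap hD hab.1 hc hac)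
    (by rwa [hca]) (by rwa [hca])⟩

end CfsgLib.RootInvol
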