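import Cfsg.Prelude.Def_QuasithinSetup
import Cfsg.Agent.Lib.RootInvolutions.Connected

/-!
Isolated root involutions, and normal subgroups when the odd-order graph is connected
(Timmesfeld, III §1).
-/

set_option autoImplicit false
set_option linter.style.haveILetI false

namespace CfsgLib.RootInvol

open Cfsg
open Relation (ReflTransGen)
open scoped commutatorElement

variable {G : Type*} [Group G] {D : Set G}

theorem isolated_conj (hD : IsRootInvolutionSet D) {w : G}
    (h : IsIsolatedElem (OddAdj D) D w) (g : G) : IsIsolatedElem (OddAdj D) D (g * w * g⁻¹) := by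
  have h' := hD.conj_mem w h.1 g
  by_contra hn
  obtain ⟨b, hb⟩ := (not_isolated_iff hD h').1 hn
  have h2 := oddAdj_conj hD hb g⁻¹
  rw [show g⁻¹ * (g * w * g⁻¹) * g⁻¹⁻¹ = w by group] at h2
  exact (h.2 _).1 h2

theorem mem_pCore_of_isolated [Finite G] (hD : IsRootInvolutionSet D) {w : G}
    (h : IsIsolatedElem (OddAdj D) D w) : w ∈ Cfsg.pCore 2 G := by
  by_contra hn
  obtain ⟨y, hy, hodd, h1⟩ :=
    CfsgLib.InvChar.exists_conj_odd_orderOf_mul w (hD.orderOf_eq w h.1) hn
  obtain ⟨g, rfl⟩ := isConj_iff.1 hy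
  refine (h.2 _).1 ⟨h.1, hD.conj_mem w h.1 g, fun e => h1 ?_, hodd⟩
  rw [← e]; exact sq_eq hD h.1

theorem mk_eq_one_of_pow_eq_one {N : Subgroup G} [N.Normal] {r : G} (hodd : Odd (orderOf r))
    {k : ℕ} (h : (r : G ⧸ N) ^ (2 ^ k) = 1) : (r : G ⧸ N) = 1 := by
  have h1 : (r : G ⧸ N) ^ orderOf r = 1 := by
    rw [← QuotientGroup.mk_pow, pow_orderOf_eq_one, QuotientGroup.mk_one]
  have := Nat.dvd_gcd (orderOf_dvd_of_pow_eq_one h1) (orderOf_dvd_of_pow_eq_one h)
  rw [Nat.Coprime.gcd_eq_one ((hodd.coprime_two_right).pow_right k), Nat.dvd_one] at this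
  exact orderOf_eq_one_iff.1 this

theorem eq_one_of_mem_pCore {r : G} (hodd : Odd (orderOf r))
    {k : ℕ} (h : r ^ (2 ^ k) ∈ Cfsg.pCore 2 G) : r = 1 := by
  obtain ⟨j, hj⟩ := CfsgLib.Cores.isPGroup_pCore 2 G ⟨_, h⟩
  have hj' : r ^ (2 ^ (k + j)) = 1 := by
    rw [pow_add, pow_mul]
    exact congrArg Subtype.val hj
  exact orderOf_eq_one_iff.1 (Nat.Coprime.eq_one_of_dvd
    ((hodd.coprime_two_right).pow_right (k + j)) (orderOf_dvd_of_pow_eq_one hj'))

theorem isolated_of_mem_pCore (hD : IsRootInvolutionSet D) {d : G} (hd : d ∈ D)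
    (h : d ∈ Cfsg.pCore 2 G) : IsIsolatedElem (OddAdj D) D d := by
  by_contra hn
  obtain ⟨b, hb⟩ := (not_isolated_iff hD hd).1 hn
  refine mul_ne_one_of_ne hD hb.2.1 hb.2.2.1 (eq_one_of_mem_pCore hb.2.2.2 (k := 1) ?_)
  rw [pow_one, show (d * b) ^ 2 = d * (b * d * b⁻¹) by rw [pow_two, inv_eq hD hb.2.1]; group]
  exact Subgroup.mul_mem _ h ((inferInstance : (Cfsg.pCore 2 G).Normal).conj_mem d h b)

theorem mem_component_of_productPartners (hD : IsRootInvolutionSet D) {a a' x : G}
    (ha' : OddAdj D a a') (hx : x ∈ productPartners D a) :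
    ReflTransGen (OddAdj D) a x ∨ IsIsolatedElem (OddAdj D) D x := by
  obtain ⟨⟨hxD, hxc, hne⟩, hxa⟩ := hx
  have hax : a * x ∈ D := hxc ▸ hxa
  by_cases hiso : IsIsolatedElem (OddAdj D) D x
  · exact Or.inr hiso
  left
  obtain ⟨x', hx'⟩ := (not_isolated_iff hD hxD).1 hiso
  obtain ⟨s, -, hs, h | h⟩ := exists_partner_of_line hD ha' hxD (Commute.symm hxc) hax
  · exact (ReflTransGen.single hs).tail h
  obtain ⟨t, -, ht, h' | h'⟩ := exists_partner_of_line hD hx' ha'.1 hxc hxa
  · exact reach_symm hD ((ReflTransGen.single ht).tail h')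
  · refine ((ReflTransGen.single hs).tail h).trans (reach_symm hD ?_)
    rw [← hxc]
    exact (ReflTransGen.single ht).tail h'

theorem exists_partner_of_component {a : G}
    (h : ∃ a' ∈ elemComponentOf (OddAdj D) D a, a' ≠ a) : ∃ a', OddAdj D a a' := by
  obtain ⟨a', ⟨-, hr⟩, hne⟩ := h
  rcases ReflTransGen.cases_head hr with e | ⟨z, hz, -⟩
  · exact absurd e.symm hne
  · exact ⟨z, hz⟩

theorem component_eq (hD : IsRootInvolutionSet D) {a b : G}
    (h : ReflTransGen (OddAdj D) a b) :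
    elemComponentOf (OddAdj D) D a = elemComponentOf (OddAdj D) D b := by
  ext z
  exact ⟨fun hz => ⟨hz.1, (reach_symm hD h).trans hz.2⟩, fun hz => ⟨hz.1, h.trans hz.2⟩⟩

variable [Finite G] (hD : IsRootInvolutionSet D) (hc : IsConnectedSet (OddAdj D) D)
  (hDD : (D ∩ commutingProducts D).Nonempty)
include hD hc hDD

omit [Finite G] in
theorem exists_line {a : G} (ha : a ∈ D) : ∃ b, IsLine D a b := by
  obtain ⟨x, hx, p, hp, q, hq, hpq, -, rfl⟩ := hDD
  obtain ⟨g, rfl⟩ := conj_of_connected hD hc p hp a ha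
  refine ⟨g * q * g⁻¹, ha, hD.conj_mem q hq g, ?_, ?_⟩
  · exact (show Commute p q from hpq).map (MulAut.conj g).toMonoidHom
  · rw [show g * p * g⁻¹ * (g * q * g⁻¹) = g * (p * q) * g⁻¹ by group]
    exact hD.conj_mem _ hx g

omit [Finite G] in
theorem exists_partner {a : G} (ha : a ∈ D) : ∃ a', OddAdj D a a' := by
  obtain ⟨b, hb⟩ := exists_line hD hc hDD ha
  exact exists_partner_of_connected hc ha hb.2.1 (ne_of_commute_mul_mem hD ha hb.2.2.2)

omit [Finite G] hDD in
theorem notMem_of_normal_ne_top {N : Subgroup G} [hn : N.Normal] (hN : N ≠ ⊤) {d : G}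
    (hd : d ∈ D) : d ∉ N := by
  intro hdN
  refine hN (top_le_iff.1 ?_)
  rw [← hD.generates, Subgroup.closure_le]
  intro e he
  obtain ⟨g, rfl⟩ := conj_of_connected hD hc d hd e he
  exact hn.conj_mem d hdN g

omit [Finite G] in
/-- Proper normal subgroups lie in `O_{2,Z}(G)`. -/
theorem le_twoZCore {N : Subgroup G} [hn : N.Normal] (hN : N ≠ ⊤) : N ≤ Cfsg.twoZCore G := by
  have hnot : ∀ {d}, d ∈ D → d ∉ N := fun hd => notMem_of_normal_ne_top hD hc hN hd
  -- a member commutes with its conjugates under `N`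
  have hcomm : ∀ d ∈ D, ∀ n ∈ N, Commute d (n * d * n⁻¹) := by
    intro d hd n hnN
    have hd' := hD.conj_mem d hd n
    have hr : d * (n * d * n⁻¹) ∈ N := by
      rw [show d * (n * d * n⁻¹) = (d * n * d⁻¹) * n⁻¹ by rw [inv_eq hD hd]; group]
      exact N.mul_mem (hn.conj_mem n hnN d) (N.inv_mem hnN)
    rcases trichotomy hD hd hd' with h | h | h
    · exact h
    · exfalso
      obtain ⟨b, hb⟩ := exists_line hD hc hDD hd
      obtain ⟨s, ⟨i, hi⟩, -, hs⟩ := exists_partner_of_line hD h hb.2.1 hb.2.2.1 hb.2.2.2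
      have hsd : (s : G ⧸ N) = (d : G ⧸ N) := by
        rw [hi, QuotientGroup.mk_mul, QuotientGroup.mk_zpow, (QuotientGroup.eq_one_iff _).2 hr,
          one_zpow, one_mul]
      have key : ∀ x, OddAdj D s x → Commute d x → x ∈ D → d * x ∈ N := by
        intro x hsx hdx hxD
        rw [← QuotientGroup.eq_one_iff, QuotientGroup.mk_mul, ← hsd, ← QuotientGroup.mk_mul]
        refine mk_eq_one_of_pow_eq_one hsx.2.2.2 (k := 1) ?_
        rw [pow_one, QuotientGroup.mk_mul, hsd, ← QuotientGroup.mk_mul, ← QuotientGroup.mk_pow,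
          orderOf_le_two hD hd hxD hdx, QuotientGroup.mk_one]
      rcases hs with h1 | h1
      · exact hnot hb.2.2.2 (key b h1 hb.2.2.1 hb.2.1)
      · refine hnot hb.2.1 ?_
        have := key (d * b) h1 ((Commute.refl d).mul_right hb.2.2.1) hb.2.2.2
        rwa [mul_cancel hD hd] at this
    · exfalso
      refine hnot (br_mem hD hd hd' h) ?_
      rw [br_eq_sq]
      exact N.pow_mem hr 2
  -- hence `⁅d, N⁆ ≤ O₂(G)`
  have hcore : ∀ d ∈ D, ∀ n ∈ N, d * n * d⁻¹ * n⁻¹ ∈ Cfsg.pCore 2 G := by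
    intro d hd n hnN
    set Y := {x | ∃ m ∈ N, x = m * d * m⁻¹} with hY
    set V := Subgroup.closure Y with hV
    have hY2 : ∀ x ∈ Y, x * x = 1 := by
      rintro x ⟨m, -, rfl⟩; exact sq_eq hD (hD.conj_mem d hd m)
    have hYc : ∀ x ∈ Y, ∀ y ∈ Y, Commute x y := by
      rintro x ⟨m, hm, rfl⟩ y ⟨m', hm', rfl⟩
      have h := (hcomm d hd (m⁻¹ * m') (N.mul_mem (N.inv_mem hm) hm')).map
        (MulAut.conj m).toMonoidHom
      simp only [MulEquiv.coe_toMonoidHom, MulAut.conj_apply] at h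
      rwa [show m * (m⁻¹ * m' * d * (m⁻¹ * m')⁻¹) * m⁻¹ = m' * d * m'⁻¹ by group] at h
    have hVY : ∀ u ∈ V, ∀ y ∈ Y, Commute u y := by
      intro u hu
      induction hu using Subgroup.closure_induction with
      | mem x hx => exact hYc x hx
      | one => exact fun y _ => Commute.one_left y
      | mul a b _ _ ha hb => exact fun y hy => (ha y hy).mul_left (hb y hy)
      | inv a _ ha => exact fun y hy => (ha y hy).inv_left
    have hVV : ∀ u ∈ V, ∀ v ∈ V, Commute u v := by
      intro u hu v hv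
      induction hv using Subgroup.closure_induction with
      | mem x hx => exact hVY u hu x hx
      | one => exact Commute.one_right u
      | mul a b _ _ ha hb => exact ha.mul_right hb
      | inv a _ ha => exact ha.inv_right
    have hV2 : ∀ u ∈ V, u * u = 1 := by
      intro u hu
      induction hu using Subgroup.closure_induction with
      | mem x hx => exact hY2 x hx
      | one => exact one_mul 1
      | mul a b ha' hb' ha hb =>
        rw [show a * b * (a * b) = a * (b * a) * b by group, (hVV b hb' a ha').eq,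
          show a * (a * b) * b = a * a * (b * b) by group, ha, hb, one_mul]
      | inv a _ ha => rw [← mul_inv_rev, ha, inv_one]
    haveI hnorm : (V.subgroupOf N).Normal := by
      constructor
      intro v hv m
      rw [Subgroup.mem_subgroupOf] at hv ⊢
      have hle : V.map (MulAut.conj (m : G)).toMonoidHom ≤ V := by
        rw [hV, MonoidHom.map_closure, Subgroup.closure_le]
        rintro _ ⟨_, ⟨m', hm', rfl⟩, rfl⟩
        refine Subgroup.subset_closure ⟨m * m', N.mul_mem m.2 hm', ?_⟩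
        simp only [MulEquiv.coe_toMonoidHom, MulAut.conj_apply]
        group
      exact hle (Subgroup.mem_map_of_mem (MulAut.conj (m : G)).toMonoidHom hv)
    have hp : IsPGroup 2 (V.subgroupOf N) := fun x =>
      ⟨1, Subtype.ext (Subtype.ext (by simpa [pow_two] using hV2 _ x.2))⟩
    have hmem : d * n * d⁻¹ * n⁻¹ ∈ N := N.mul_mem (hn.conj_mem n hnN d) (N.inv_mem hnN)
    have hmemV : (⟨_, hmem⟩ : N) ∈ V.subgroupOf N := by
      rw [Subgroup.mem_subgroupOf]
      show d * n * d⁻¹ * n⁻¹ ∈ V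
      rw [show d * n * d⁻¹ * n⁻¹ = d * (n * d * n⁻¹) by rw [inv_eq hD hd]; group]
      exact V.mul_mem (Subgroup.subset_closure ⟨1, N.one_mem, by group⟩)
        (Subgroup.subset_closure ⟨n, hnN, rfl⟩)
    exact CfsgLib.Cores.map_subtype_pCore_le hn.isSubnormal
      (Subgroup.mem_map_of_mem N.subtype (CfsgLib.Cores.le_pCore hp hmemV))
  intro n hnN
  show (n : G ⧸ Cfsg.pCore 2 G) ∈ Subgroup.center _
  rw [Subgroup.mem_center_iff]
  intro g
  induction g using QuotientGroup.induction_on with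
  | H g =>
    have hg : g ∈ Subgroup.closure D := hD.generates ▸ Subgroup.mem_top g
    show Commute (g : G ⧸ Cfsg.pCore 2 G) (n : G ⧸ Cfsg.pCore 2 G)
    induction hg using Subgroup.closure_induction with
    | mem d hd =>
      refine mul_inv_eq_iff_eq_mul.1 (mul_inv_eq_one.1 ?_)
      simp only [← QuotientGroup.mk_mul, ← QuotientGroup.mk_inv]
      exact (QuotientGroup.eq_one_iff _).2 (hcore d hd n hnN)
    | one => exact Commute.one_left _
    | mul a b _ _ ha hb => exact ha.mul_left hb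
    | inv a _ ha => exact ha.inv_left

omit [Finite G] hc hDD in
theorem false_of_pow_mem_twoZCore {a a' : G} (h : OddAdj D a a') {k : ℕ}
    (hk : (a * a') ^ (2 ^ k) ∈ Cfsg.twoZCore G) : False := by
  set r := a * a' with hr
  set q := r ^ (2 ^ k) with hq
  have hinv : a * q * a⁻¹ = q⁻¹ := by
    rw [hq, ← conj_pow, ← inv_pow]
    congr 1
    rw [hr, mul_inv_rev, inv_eq hD h.1, inv_eq hD h.2.1, ← mul_assoc a a a', sq_eq hD h.1, one_mul]
  have hcen : (q : G ⧸ Cfsg.pCore 2 G) ∈ Subgroup.center _ := hk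
  rw [Subgroup.mem_center_iff] at hcen
  have h1 : ((q⁻¹ : G) : G ⧸ Cfsg.pCore 2 G) = (q : G ⧸ Cfsg.pCore 2 G) := by
    rw [← hinv, QuotientGroup.mk_mul, QuotientGroup.mk_mul, hcen, QuotientGroup.mk_inv,
      mul_inv_cancel_right]
  rw [QuotientGroup.eq, inv_inv] at h1
  refine mul_ne_one_of_ne hD h.2.1 h.2.2.1 (eq_one_of_mem_pCore h.2.2.2 (k := k + 1) ?_)
  rw [pow_succ, pow_mul, pow_two]
  exact h1

omit [Finite G] in
theorem simple_quotient : IsSimpleGroup (G ⧸ Cfsg.twoZCore G) := by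
  obtain ⟨x, hx, -⟩ := hDD.mono (fun y hy => hy)
  obtain ⟨a', ha'⟩ := exists_partner hD hc hDD hx
  haveI : Nontrivial (G ⧸ Cfsg.twoZCore G) :=
    nontrivial_of_ne ((x * a' : G) : G ⧸ Cfsg.twoZCore G) 1 fun e =>
      false_of_pow_mem_twoZCore hD ha' (k := 0)
        (by rw [pow_zero, pow_one]; exact (QuotientGroup.eq_one_iff _).1 e)
  constructor
  intro M hM
  set π := QuotientGroup.mk' (Cfsg.twoZCore G) with hπ
  by_cases htop : M.comap π = ⊤
  · right
    rw [← Subgroup.map_comap_eq_self_of_surjective (QuotientGroup.mk'_surjective _) M, ← hπ, htop,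
      Subgroup.map_top_of_surjective _ (QuotientGroup.mk'_surjective _)]
  · left
    haveI := hM.comap π
    rw [← Subgroup.map_comap_eq_self_of_surjective (QuotientGroup.mk'_surjective _) M, ← hπ,
      Subgroup.map_eq_bot_iff, QuotientGroup.ker_mk']
    exact le_twoZCore hD hc hDD htop

omit hD hc hDD in
theorem isSolvable_twoZCore : Group.IsSolvable (Cfsg.twoZCore G) := by
  haveI : Fact (Nat.Prime 2) := ⟨Nat.prime_two⟩
  haveI : Group.IsSolvable (Subgroup.center (G ⧸ Cfsg.pCore 2 G)) :=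
    Group.isSolvable_of_comm fun a b => Subtype.ext (Subgroup.mem_center_iff.1 b.2 (a : _))
  haveI : Group.IsNilpotent (Cfsg.pCore 2 G) := (CfsgLib.Cores.isPGroup_pCore 2 G).isNilpotent
  have hle : Cfsg.pCore 2 G ≤ Cfsg.twoZCore G := fun x hx => by
    show (x : G ⧸ Cfsg.pCore 2 G) ∈ Subgroup.center _
    rw [(QuotientGroup.eq_one_iff _).2 hx]
    exact Subgroup.one_mem _
  let g : Cfsg.twoZCore G →* Subgroup.center (G ⧸ Cfsg.pCore 2 G) :=
    (((QuotientGroup.mk' (Cfsg.pCore 2 G)).comp (Cfsg.twoZCore G).subtype)).codRestrict _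
      fun x => x.2
  refine Group.isSolvable_of_ker_le_range (Subgroup.inclusion hle) g ?_
  intro y hy
  have hy' : ((y : G) : G ⧸ Cfsg.pCore 2 G) = 1 := congrArg Subtype.val (MonoidHom.mem_ker.1 hy)
  exact ⟨⟨y, (QuotientGroup.eq_one_iff _).1 hy'⟩, rfl⟩

theorem solvableRadical_eq : Cfsg.solvableRadical G = Cfsg.twoZCore G := by
  refine le_antisymm (sSup_le ?_) (le_sSup ⟨inferInstance, isSolvable_twoZCore⟩)
  rintro N ⟨hN, hsol⟩
  haveI := hN
  by_cases htop : N = ⊤
  · exfalso
    subst htop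
    haveI := hsol
    obtain ⟨x, hx, -⟩ := hDD.mono (fun y hy => hy)
    obtain ⟨a', ha'⟩ := exists_partner hD hc hDD hx
    haveI : Nontrivial G := nontrivial_of_ne x 1 (ne_one hD hx)
    haveI : Group.IsSolvable G :=
      Group.isSolvable_of_surjective (f := (⊤ : Subgroup G).subtype) fun g => ⟨⟨g, trivial⟩, rfl⟩
    have hlt := Group.IsSolvable.commutator_lt_top_of_nontrivial G
    refine false_of_pow_mem_twoZCore hD ha' (k := 1) (le_twoZCore hD hc hDD hlt.ne ?_)
    rw [pow_one, show (x * a') ^ 2 = ⁅x, a'⁆ by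
      rw [commutatorElement_def, inv_eq hD hx, inv_eq hD ha'.2.1, pow_two]; group]
    exact Subgroup.commutator_mem_commutator (Subgroup.mem_top x) (Subgroup.mem_top a')
  · exact le_twoZCore hD hc hDD htop

end CfsgLib.RootInvol
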